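import Cfsg.Agent.Lib.Fischer.PairTwentyFour.Orbits
import Cfsg.Agent.Lib.Fischer.PairTwentyFour.Structure

/-!
An element interchanging the two triples of a cross pair in a group of type M(24).
-/

set_option autoImplicit false
set_option linter.unusedSectionVars false

namespace CfsgLib.Fischer.PairTwentyFour

open CfsgLib.Fischer CfsgLib.InvChar.FischerProducts CfsgLib.InvChar.FischerHexad

variable {G : Type*} [Group G] [Finite G] {D : Set G}
variable (hD : Cfsg.IsThreeTranspositionGroup D) (hprim : Cfsg.IsPrimitiveUnderConj D)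
  (ht : Cfsg.IsOfTypeM24 G D) {a b c d : G}

include hD hprim ht

/-- The triples of a cross pair are interchanged, given a pair of the other orbit over one of them. -/
theorem exists_swap_of_orders (ha : a ∈ D) (hb : b ∈ D) (hc : c ∈ D) (hd : d ∈ D)
    (had : ¬ Commute a d) (hbc : ¬ Commute b c) (hab : Commute a b) (hac : Commute a c)
    (hdb : Commute d b) (hdc : Commute d c)
    (h₂ : Nat.card (Subgroup.centralizer ({a, d, b, c} : Set G)) = 4245696)
    {b₁ c₁ : G} (hb₁ : b₁ ∈ common D b c) (hc₁ : c₁ ∈ common D b c) (hn₁ : ¬ Commute b₁ c₁)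
    (h₁ : Nat.card (Subgroup.centralizer ({b, c, b₁, c₁} : Set G)) = 243 * 51840) :
    ∃ g : G, (∀ x ∈ ({a, d} : Set G), g * x * g⁻¹ ∈ Subgroup.closure ({b, c} : Set G)) ∧
      ∀ x ∈ ({b, c} : Set G), g * x * g⁻¹ ∈ Subgroup.closure ({a, d} : Set G) := by
  obtain ⟨g, hga, hgd⟩ := exists_conj_pair hD hprim ht ha hd had hb hc hbc
  have ha' : a ∈ common D b c := ⟨ha, fun e => hbc (e ▸ hac), hab.symm, hac.symm⟩
  have hd' : d ∈ common D b c := ⟨hd, fun e => hbc (e ▸ hdc), hdb.symm, hdc.symm⟩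
  have hset : ({b, c, a, d} : Set G) = {a, d, b, c} := by
    ext z
    simp only [Set.mem_insert_iff, Set.mem_singleton_iff]
    tauto
  obtain ⟨-, hall⟩ := two_orbits hD hprim ht hb hc hbc hb₁ hc₁ hn₁ ha' hd' had h₁ (hset ▸ h₂)
  obtain ⟨h, hh, e⟩ := hall (g * b * g⁻¹) (g * c * g⁻¹) (hD.2.1 g b hb) (hD.2.1 g c hc)
    (hga ▸ (conj_commute_iff g a b).2 hab) (hgd ▸ (conj_commute_iff g d b).2 hdb)
    (hga ▸ (conj_commute_iff g a c).2 hac) (hgd ▸ (conj_commute_iff g d c).2 hdc)
    fun k => hbc ((conj_commute_iff g b c).1 k)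
  obtain ⟨hhb, hhc⟩ := PairThree.mem_centralizer_pair hh
  rcases e with e | e
  · exfalso
    have h3 := natCard_centralizer_of_map hh e
    have h4 : Nat.card (Subgroup.centralizer ({b, c, g * b * g⁻¹, g * c * g⁻¹} : Set G)) = 4245696 := by
      rw [show ({b, c, g * b * g⁻¹, g * c * g⁻¹} : Set G) = (MulAut.conj g) '' ({a, d, b, c} : Set G) by
        simp only [Set.image_insert_eq, Set.image_singleton, MulAut.conj_apply, hga, hgd]]
      rw [← h₂]
      refine Nat.card_congr (((MulAut.conj g).subgroupMap _).trans (MulEquiv.subgroupCongr ?_)).toEquiv.symm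
      ext z
      constructor
      · rintro ⟨y, hy, rfl⟩ _ ⟨x, hx, rfl⟩
        show g * x * g⁻¹ * (g * y * g⁻¹) = g * y * g⁻¹ * (g * x * g⁻¹)
        calc g * x * g⁻¹ * (g * y * g⁻¹) = g * (x * y) * g⁻¹ := by group
          _ = g * (y * x) * g⁻¹ := by rw [hy x hx]
          _ = _ := by group
      · intro hz
        refine ⟨(MulAut.conj g).symm z, fun x hx => ?_, (MulAut.conj g).apply_symm_apply z⟩
        apply (MulAut.conj g).injective
        rw [map_mul, map_mul, MulEquiv.apply_symm_apply]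
        exact hz _ ⟨x, hx, rfl⟩
    omega
  refine ⟨h * g, ?_, ?_⟩
  · rintro x (rfl | rfl)
    · rw [show h * g * x * (h * g)⁻¹ = h * (g * x * g⁻¹) * h⁻¹ by group, hga, hhb.eq, mul_inv_cancel_right]
      exact Subgroup.subset_closure (Or.inl rfl)
    · rw [show h * g * x * (h * g)⁻¹ = h * (g * x * g⁻¹) * h⁻¹ by group, hgd, hhc.eq, mul_inv_cancel_right]
      exact Subgroup.subset_closure (Or.inr rfl)
  · intro x hx
    rw [show h * g * x * (h * g)⁻¹ = h * (g * x * g⁻¹) * h⁻¹ by group, ← e]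
    refine ⟨g * x * g⁻¹, Subgroup.subset_closure ?_, rfl⟩
    rcases hx with rfl | rfl
    exacts [Or.inl rfl, Or.inr rfl]

end CfsgLib.Fischer.PairTwentyFour
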